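import Mathlib

/-! Fixed vectors of injective semilinear maps over an algebraically closed field (Lang's theorem for `GL_n`). -/

set_option autoImplicit false

namespace Cfsg.Agent.Lib.Lang

open Module Polynomial

variable {K V : Type*} [Field K] [IsAlgClosed K] [AddCommGroup V] [Module K V]

/-- Recursive polynomials giving the coefficients of a fixed vector. -/
noncomputable def coeffPoly (q : ℕ) (a : ℕ → K) : ℕ → K[X]
  | 0 => C (a 0) * X ^ q
  | j + 1 => (coeffPoly q a j) ^ q + C (a (j + 1)) * X ^ q

section Poly

variable {p : ℕ} (q : ℕ) (a : ℕ → K)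

theorem coeffPoly_eval_zero (hq : 2 ≤ q) (j : ℕ) : (coeffPoly q a j).eval 0 = 0 := by
  have hq0 : q ≠ 0 := by omega
  induction j with
  | zero => simp [coeffPoly, hq0]
  | succ j ih => simp [coeffPoly, hq0, ih]

theorem coeffPoly_derivative (hqK : (q : K) = 0) (j : ℕ) : derivative (coeffPoly q a j) = 0 := by
  have hd : derivative (X ^ q : K[X]) = 0 := by
    rw [derivative_X_pow, hqK]; simp
  induction j with
  | zero => simp [coeffPoly, hd]
  | succ j ih =>
    simp only [coeffPoly, derivative_add, derivative_pow, ih, derivative_C_mul, mul_zero, zero_add, hd]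

/-- If some coefficient up to `j` does not vanish then the polynomial has degree at least `q`. -/
theorem coeffPoly_natDegree (hq : 2 ≤ q) (j : ℕ) (h : ∃ i ≤ j, a i ≠ 0) : q ≤ (coeffPoly q a j).natDegree := by
  induction j with
  | zero =>
    obtain ⟨i, hi, hai⟩ := h
    have hi0 : i = 0 := by omega
    subst hi0
    simp [coeffPoly, hai]
  | succ j ih =>
    by_cases h2 : ∃ i ≤ j, a i ≠ 0
    · have h3 := ih h2
      have h4 : (coeffPoly q a j).natDegree * q ≥ q * q := by
        rw [mul_comm]
        exact Nat.mul_le_mul_left q h3
      have h5 : ((coeffPoly q a j) ^ q).natDegree = q * (coeffPoly q a j).natDegree := natDegree_pow _ _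
      have h6 : (C (a (j + 1)) * X ^ q : K[X]).natDegree ≤ q := natDegree_C_mul_X_pow_le _ _
      have h7 : q < ((coeffPoly q a j) ^ q).natDegree := by
        rw [h5]
        nlinarith
      have h8 : (coeffPoly q a (j + 1)).natDegree = ((coeffPoly q a j) ^ q).natDegree := by
        show ((coeffPoly q a j) ^ q + C (a (j + 1)) * X ^ q).natDegree = _
        apply natDegree_add_eq_left_of_natDegree_lt
        omega
      rw [h8]
      omega
    · push Not at h2
      obtain ⟨i, hi, hai⟩ := h
      have hi' : i = j + 1 := by
        by_contra hne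
        exact hai (h2 i (by omega))
      subst hi'
      have h0 : coeffPoly q a j = 0 := by
        clear ih hi hai
        have : ∀ k, k ≤ j → coeffPoly q a k = 0 := by
          intro k
          induction k with
          | zero =>
            intro _
            simp [coeffPoly, h2 0 (by omega)]
          | succ k ih2 =>
            intro hk
            simp only [coeffPoly]
            rw [ih2 (by omega), h2 (k + 1) hk]
            have hq0 : q ≠ 0 := by omega
            simp [hq0]
        exact this j le_rfl
      have h9 : coeffPoly q a (j + 1) = C (a (j + 1)) * X ^ q := by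
        simp only [coeffPoly]
        have hq0 : q ≠ 0 := by omega
        rw [h0]
        simp [hq0]
      rw [h9, natDegree_C_mul_X_pow _ _ hai]

/-- A nonzero solution of `P(t) = t`. -/
theorem exists_root_ne_zero (hqK : (q : K) = 0) (hq : 2 ≤ q) (j : ℕ) (h : ∃ i ≤ j, a i ≠ 0) :
    ∃ t : K, t ≠ 0 ∧ (coeffPoly q a j).eval t = t := by
  set P := coeffPoly q a j with hP
  set R : K[X] := P - X with hR
  set S : K[X] := divX R with hS
  have h1 : R = S * X + C (R.coeff 0) := (divX_mul_X_add R).symm
  have h2 : R.coeff 0 = 0 := by
    rw [coeff_zero_eq_eval_zero, hR, eval_sub, hP, coeffPoly_eval_zero q a hq]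
    simp
  have hP1 : P.coeff 1 = 0 := by
    have := congrArg (fun r => coeff r 0) (coeffPoly_derivative q a hqK j)
    simp only [coeff_derivative, coeff_zero] at this
    simpa using this
  have h3 : S.eval 0 = -1 := by
    rw [← coeff_zero_eq_eval_zero, hS, coeff_divX, hR]
    simp [hP1]
  have h4 : q ≤ P.natDegree := coeffPoly_natDegree q a hq j h
  have h5 : R.natDegree = P.natDegree := by
    rw [hR]
    apply natDegree_sub_eq_left_of_natDegree_lt
    rw [natDegree_X]
    omega
  have h6 : S.natDegree = R.natDegree - 1 := natDegree_divX_eq_natDegree_tsub_one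
  have h7 : S.degree ≠ 0 := by
    intro h8
    have h9 : S.natDegree = 0 := natDegree_eq_of_degree_eq_some (by simpa using h8)
    omega
  obtain ⟨t, ht⟩ := IsAlgClosed.exists_root S h7
  have ht0 : t ≠ 0 := by
    rintro rfl
    rw [IsRoot.def, h3] at ht
    exact (neg_ne_zero.2 one_ne_zero) ht
  refine ⟨t, ht0, ?_⟩
  have h10 := congrArg (eval t) h1
  rw [h2] at h10
  simp only [eval_add, eval_mul, eval_X, eval_C, IsRoot.def.1 ht, zero_mul, add_zero, hR, eval_sub] at h10
  exact sub_eq_zero.1 h10

theorem coeffPoly_eval_succ (t : K) (j : ℕ) :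
    (coeffPoly q a (j + 1)).eval t = ((coeffPoly q a j).eval t) ^ q + a (j + 1) * t ^ q := by
  simp [coeffPoly]

theorem coeffPoly_eval_zero' (t : K) : (coeffPoly q a 0).eval t = a 0 * t ^ q := by
  simp [coeffPoly]

end Poly

section Fixed

variable [FiniteDimensional K V]
variable {σ : K →+* K} {q : ℕ} (hσ : ∀ x, σ x = x ^ q) (hqK : (q : K) = 0) (hq : 2 ≤ q)

include hσ hqK hq

/-- An injective semilinear map on a non-zero space has a non-zero fixed vector. -/
theorem exists_fixed_ne_zero [Nontrivial V] (φ : V →ₛₗ[σ] V) (hφ : Function.Injective φ) :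
    ∃ x : V, x ≠ 0 ∧ φ x = x := by
  classical
  obtain ⟨v, hv⟩ := exists_ne (0 : V)
  let e : ℕ → V := fun i => φ^[i] v
  have he_succ : ∀ i, e (i + 1) = φ (e i) := fun i => Function.iterate_succ_apply' φ i v
  let W : ℕ → Submodule K V := fun r => Submodule.span K (e '' (Finset.range r : Set ℕ))
  have hex : ∃ r, e r ∈ W r := by
    by_contra hcon
    push Not at hcon
    have h1 : ∀ r, r ≤ finrank K (W r) := by
      intro r
      induction r with
      | zero => simp
      | succ r ih =>
        have h2 : W r < W (r + 1) := by
          apply lt_of_le_of_ne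
          · apply Submodule.span_mono
            apply Set.image_mono
            intro x hx
            simp only [Finset.coe_range, Set.mem_Iio] at hx ⊢
            omega
          · intro h3
            apply hcon r
            rw [h3]
            apply Submodule.subset_span
            exact ⟨r, by simp, rfl⟩
        have := Submodule.finrank_lt_finrank_of_lt h2
        omega
    have h3 := h1 (finrank K V + 1)
    have h4 := Submodule.finrank_le (W (finrank K V + 1))
    omega
  let r := Nat.find hex
  have hr : e r ∈ W r := Nat.find_spec hex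
  have hrmin : ∀ s, s < r → e s ∉ W s := fun s hs => Nat.find_min hex hs
  have hr0 : r ≠ 0 := by
    intro h0
    rw [h0] at hr
    have : W 0 = ⊥ := by simp [W]
    rw [this, Submodule.mem_bot] at hr
    exact hv hr
  obtain ⟨r', hr'⟩ : ∃ r', r = r' + 1 := ⟨r - 1, by omega⟩
  obtain ⟨a, ha⟩ : ∃ a : ℕ → K, ∑ i ∈ Finset.range r, a i • e i = e r := by
    exact (Submodule.mem_span_image_finset_iff_exists_fun' K).1 hr
  have hne : ∃ i ≤ r', a i ≠ 0 := by
    by_contra hcon
    push Not at hcon
    have h1 : e r = 0 := by
      rw [← ha]
      apply Finset.sum_eq_zero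
      intro i hi
      rw [hcon i (by simp only [Finset.mem_range] at hi; omega), zero_smul]
    have h2 : ∀ i, e i ≠ 0 := by
      intro i
      induction i with
      | zero => exact hv
      | succ i ih =>
        rw [he_succ]
        intro h3
        apply ih
        apply hφ
        rw [h3, map_zero]
    exact h2 r h1
  obtain ⟨t, ht0, ht⟩ := exists_root_ne_zero q a hqK hq r' hne
  let c : ℕ → K := fun j => (coeffPoly q a j).eval t
  have hc0 : c 0 = a 0 * t ^ q := coeffPoly_eval_zero' q a t
  have hcs : ∀ j, c (j + 1) = c j ^ q + a (j + 1) * t ^ q := coeffPoly_eval_succ q a t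
  have hct : c r' = t := ht
  -- the partial-sum identity
  have key : ∀ m, φ (∑ j ∈ Finset.range m, c j • e j) =
      ∑ j ∈ Finset.range (m + 1), c j • e j - t ^ q • ∑ j ∈ Finset.range (m + 1), a j • e j := by
    intro m
    induction m with
    | zero =>
      simp only [Finset.range_zero, Finset.sum_empty, map_zero, zero_add, Finset.sum_range_one]
      rw [hc0, mul_comm, mul_smul, sub_self]
    | succ m ih =>
      rw [Finset.sum_range_succ, map_add, ih, Finset.sum_range_succ _ (m + 1), Finset.sum_range_succ _ (m + 1)]
      rw [LinearMap.map_smulₛₗ, ← he_succ, hσ, hcs, smul_add, add_smul, mul_smul, smul_comm (a (m + 1)) (t ^ q) (e (m + 1))]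
      abel
  refine ⟨∑ j ∈ Finset.range r, c j • e j, ?_, ?_⟩
  · intro h0
    rw [hr', Finset.sum_range_succ, hct] at h0
    apply hrmin r' (by omega)
    have h1 : e r' = t⁻¹ • (-(∑ j ∈ Finset.range r', c j • e j)) := by
      have h2 : t • e r' = -(∑ j ∈ Finset.range r', c j • e j) := by
        rw [eq_neg_iff_add_eq_zero, add_comm]
        exact h0
      rw [← h2, smul_smul, inv_mul_cancel₀ ht0, one_smul]
    rw [h1]
    apply Submodule.smul_mem
    apply Submodule.neg_mem
    apply Submodule.sum_mem
    intro j hj
    apply Submodule.smul_mem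
    apply Submodule.subset_span
    exact ⟨j, by simpa using hj, rfl⟩
  · rw [hr', Finset.sum_range_succ, map_add, key r', hct, LinearMap.map_smulₛₗ, ← he_succ, hσ, ← hr', ha]
    rw [sub_add_cancel, hr', Finset.sum_range_succ, hct]

/-- The fixed vectors of an injective semilinear map span (Lang). -/
theorem span_fixed_eq_top (hsurj : Function.Surjective σ) (n : ℕ) :
    ∀ (V : Type _) [AddCommGroup V] [Module K V] [FiniteDimensional K V] (φ : V →ₛₗ[σ] V),
      finrank K V = n → Function.Injective φ → Submodule.span K {x : V | φ x = x} = ⊤ := by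
  classical
  induction n using Nat.strong_induction_on with
  | _ n ih =>
    intro V _ _ _ φ hn hφ
    by_cases hV : Subsingleton V
    · exact Subsingleton.elim _ _
    rw [not_subsingleton_iff_nontrivial] at hV
    obtain ⟨x, hx0, hx⟩ := exists_fixed_ne_zero hσ hqK hq φ hφ
    let L : Submodule K V := K ∙ x
    have hLφ : L ≤ L.comap φ := by
      intro y hy
      obtain ⟨c, rfl⟩ := Submodule.mem_span_singleton.1 hy
      rw [Submodule.mem_comap, LinearMap.map_smulₛₗ, hx]
      exact Submodule.smul_mem _ _ (Submodule.mem_span_singleton_self x)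
    let φ' : (V ⧸ L) →ₛₗ[σ] (V ⧸ L) := L.mapQ L φ hLφ
    have hφ'mk : ∀ v, φ' (L.mkQ v) = L.mkQ (φ v) := fun v => rfl
    have hφ' : Function.Injective φ' := by
      rw [injective_iff_map_eq_zero]
      intro z
      induction z using Submodule.Quotient.induction_on with
      | _ v =>
        intro hz
        have h1 : L.mkQ (φ v) = 0 := hz
        have h2 : φ v ∈ L := by
          rw [← Submodule.ker_mkQ L]
          exact h1
        obtain ⟨c, hc⟩ := Submodule.mem_span_singleton.1 h2
        obtain ⟨d, rfl⟩ := hsurj c
        have h3 : φ (d • x) = φ v := by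
          rw [LinearMap.map_smulₛₗ, hx, hc]
        have h4 : d • x = v := hφ h3
        rw [← h4]
        show L.mkQ (d • x) = 0
        rw [← LinearMap.mem_ker, Submodule.ker_mkQ]
        exact Submodule.smul_mem _ _ (Submodule.mem_span_singleton_self x)
    have hfin : finrank K (V ⧸ L) < n := by
      have h1 := Submodule.finrank_quotient_add_finrank L
      have h2 : finrank K L = 1 := finrank_span_singleton hx0
      omega
    have hIH := ih _ hfin (V ⧸ L) φ' rfl hφ'
    -- lifting fixed vectors
    have hlift : ∀ z : V ⧸ L, φ' z = z → ∃ y : V, φ y = y ∧ L.mkQ y = z := by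
      intro z
      induction z using Submodule.Quotient.induction_on with
      | _ v =>
        intro hz
        have h1 : L.mkQ (φ v) = L.mkQ v := hz
        have h2 : φ v - v ∈ L := by
          rw [← Submodule.ker_mkQ L, LinearMap.mem_ker, map_sub, h1, sub_self]
        obtain ⟨c, hc⟩ := Submodule.mem_span_singleton.1 h2
        -- solve `d ^ q - d + c = 0` (with `c • x = φ v - v`)
        obtain ⟨d, hd⟩ : ∃ d : K, d ^ q - d + c = 0 := by
          have hdeg : (X ^ q - X + C c : K[X]).degree ≠ 0 := by
            have h3 : (X ^ q - X + C c : K[X]).natDegree = q := by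
              have h4 : (X ^ q - X : K[X]).natDegree = q := by
                rw [natDegree_sub_eq_left_of_natDegree_lt]
                · simp
                · simp only [natDegree_X, natDegree_X_pow]
                  omega
              rw [natDegree_add_eq_left_of_natDegree_lt]
              · exact h4
              · rw [h4, natDegree_C]
                omega
            intro h5
            have h6 : (X ^ q - X + C c : K[X]).natDegree = 0 := natDegree_eq_of_degree_eq_some (by simpa using h5)
            omega
          obtain ⟨d, hd⟩ := IsAlgClosed.exists_root _ hdeg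
          refine ⟨d, ?_⟩
          simpa using hd
        refine ⟨v + d • x, ?_, ?_⟩
        · rw [map_add, LinearMap.map_smulₛₗ, hx, hσ]
          have h3 : φ v = v + c • x := by
            rw [hc]; abel
          rw [h3, add_assoc, ← add_smul]
          congr 2
          linear_combination hd
        · show L.mkQ (v + d • x) = L.mkQ v
          rw [map_add]
          have : L.mkQ (d • x) = 0 := by
            rw [← LinearMap.mem_ker, Submodule.ker_mkQ]
            exact Submodule.smul_mem _ _ (Submodule.mem_span_singleton_self x)
          rw [this, add_zero]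
    set S := Submodule.span K {x : V | φ x = x} with hS
    have hxS : L ≤ S := by
      rw [Submodule.span_singleton_le_iff_mem]
      exact Submodule.subset_span hx
    have hmap : Submodule.map L.mkQ S = ⊤ := by
      rw [eq_top_iff, ← hIH, Submodule.span_le]
      intro z hz
      obtain ⟨y, hy, rfl⟩ := hlift z hz
      exact Submodule.mem_map_of_mem (Submodule.subset_span hy)
    rw [eq_top_iff]
    intro v _
    have h1 : L.mkQ v ∈ Submodule.map L.mkQ S := by rw [hmap]; trivial
    obtain ⟨s, hs, hsv⟩ := h1
    have h2 : v - s ∈ L := by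
      rw [← Submodule.ker_mkQ L, LinearMap.mem_ker, map_sub, hsv, sub_self]
    have h3 := S.add_mem (hxS h2) hs
    rwa [sub_add_cancel] at h3

end Fixed

end Cfsg.Agent.Lib.Lang
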